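import Cfsg.Agent.Lib.Mon.Nor

/-! # An `M1`-invariant trilinear form that vanishes on the 98280-part is zero -/

set_option autoImplicit false

namespace Cfsg.Lib.Griess

open Subgroup MulAction Matrix Cfsg.Lib.Leech Cfsg.Lib.ES Finset Cfsg.Lib.M3

/-- trilinear forms on the Griess module -/
abbrev Tri3 : Type := V →ₗ[ℝ] V →ₗ[ℝ] V →ₗ[ℝ] ℝ

/-- invariant forms that vanish on the identity -/
structure Inv0 (g : Tri3) : Prop where
  inv : ∀ k ∈ M1, ∀ u v w, g (k • u) (k • v) (k • w) = g u v w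
  e₁ : ∀ v w, g e4 v w = 0
  e₂ : ∀ u w, g u e4 w = 0
  e₃ : ∀ u v, g u v e4 = 0

/-- … and on the 98280-part -/
structure InvU (g : Tri3) : Prop extends Inv0 g where
  uuu : ∀ u v w, IsU u → IsU v → IsU w → g u v w = 0

variable {g : Tri3} {x y : Q} {a b c u v w : V}

theorem Inv0.char (h : Inv0 g) {k : Aut} (hk : k ∈ M1) {r s t : ℝ} (h1 : k • u = r • u) (h2 : k • v = s • v)
    (h3 : k • w = t • w) (e : r * s * t = -1) : g u v w = 0 := by
  have := h.inv k hk u v w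
  simp only [h1, h2, h3, map_smul, LinearMap.smul_apply, smul_eq_mul] at this
  linear_combination (-1 / 2) * this + (g u v w / 2) * e

theorem exists_oct : ∃ O : Cd, Good O 0 := by
  obtain ⟨O, hO⟩ := card_pos.1 (show 0 < Oct.card by rw [card_Oct]; decide)
  exact ⟨O, mem_Oct.1 hO, zero_mem_sub _, by simp⟩

theorem off_P (n : ZMod 2) {i j : Pt} (h : i ≠ j) : IsO (aP (eP n i j) - dg (Pi.single i 2 + Pi.single j 2)) :=
  ⟨(isA_aP _).sub (isA_dg _), fun k => by
    have := Pm_eP n h k k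
    by_cases h1 : k = i <;> by_cases h2 : k = j <;>
      simp_all [aP, dg, inA, rb_e1, mul_assoc]⟩

theorem off_W (d : Cd) (i : Pt) : IsO (aP (eW d i) - (dg (Pi.single i 1) + (1 / 8 : ℝ) • e4)) :=
  ⟨(isA_aP _).sub ⟨by simp [dg, inA, e4], by simp [dg, inA, e4]⟩, fun k => by
    have := Pm_eq (nm_lW d i) (mk_lW d i) k k
    rcases z2_cases ((d : W) k) with e | e <;> by_cases h1 : k = i <;>
      simp_all [aP, dg, inA, e4, lW, vW, e1_apply] <;> norm_num⟩

theorem IsO.sub (h : IsO u) (h' : IsO v) : IsO (u - v) := ⟨h.1.sub h'.1, fun i => by simp [h.2, h'.2]⟩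

theorem exists_base : ∃ x y, Short x ∧ Short y ∧ ip (ax x) (ax y) = 4 ∧ IsO (aP x - aP y) := by
  obtain ⟨O, hO, -⟩ := exists_oct
  obtain ⟨i, hi⟩ : ∃ i, (O : W) i = 0 := by
    by_contra! h
    rw [show (O : W) = 1 from funext fun i => (z2_cases _).resolve_left (h i)] at hO
    simp at hO
  refine ⟨_, _, short_eW 0 i, short_eW O i, four_of_dt (nm_lW 0 i) (nm_lW O i) (mk_lW 0 i) (mk_lW O i) (.inl ?_), ?_⟩
  · have : ∀ k, vW 0 i k * vW O i k = 1 - 2 * vz (O.1 k) + vz (e1 i k) * 8 := fun k => by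
      by_cases h1 : k = i <;> simp_all [vW, e1_apply, sz]
    change ∑ k, vW 0 i k * vW O i k = _
    simp only [this, sum_add_distrib, sum_sub_distrib, sum_vz_e1 _ fun _ => 8, ← mul_sum, sum_vz, hO]; rfl
  · simpa using (off_W 0 i).sub (off_W O i)

theorem four_W {i j : Pt} (h : i ≠ j) : ip (ax (eW 0 i)) (ax (eW 0 j)) = 4 :=
  four_of_dt (nm_lW 0 i) (nm_lW 0 j) (mk_lW 0 i) (mk_lW 0 j) (.inl (dt_lW h))

theorem dg_eq_sum (d : Pt → ℝ) : dg d = ∑ i, d i • dg (Pi.single i 1) := by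
  simp only [← map_smul, ← map_sum]; congr 1; ext j; simp [Pi.single_apply]

theorem sum_dg : ∑ i, dg (Pi.single i 1) = e4 := by simp [e4_eq, dg_eq_sum 1]

/-- the off-diagonal matrices and the identity generate the 300-part under `C` -/
theorem IsA.mem {S : Submodule ℝ V} (h : IsA a) (hc : ∀ c ∈ CZ, ∀ v ∈ S, c • v ∈ S) (ho : ∀ v, IsO v → v ∈ S)
    (he : e4 ∈ S) : a ∈ S := by
  obtain ⟨x, y, hx, hy, h4, h0⟩ := exists_base
  have h1 : ∀ i j, dg (Pi.single i 1) - dg (Pi.single j 1) ∈ S := fun i j => by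
    by_cases e : i = j
    · simp [e]
    obtain ⟨c, hc', e1, e2⟩ := exists_conj₂ hx hy (short_eW 0 i) (short_eW 0 j) h4 (four_W e)
    have := hc c hc' _ (ho _ h0)
    rw [smul_sub, smul_aP hc' hx (short_eW _ _) e1, smul_aP hc' hy (short_eW _ _) e2] at this
    convert sub_mem this (ho _ ((off_W 0 i).sub (off_W 0 j))) using 1
    abel
  have h2 : ∀ i, dg (Pi.single i 1) ∈ S := fun i => by
    have := add_mem (S.sum_mem fun j (_ : j ∈ univ) => h1 i j) he
    rw [sum_sub_distrib, sum_dg, sub_add_cancel, sum_const, ← Nat.cast_smul_eq_nsmul ℝ] at this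
    exact (S.smul_mem_iff (by simp)).1 this
  rw [← sub_add_cancel a (dg fun i => a.1.1 i i)]
  exact add_mem (ho _ h.off) (dg_eq_sum _ ▸ S.sum_mem fun i _ => S.smul_mem _ (h2 i))

namespace InvU

variable (h : InvU g)
include h

theorem s12 : InvU g.flip := ⟨⟨fun k hk u v w => h.inv k hk v u w, fun v w => h.e₂ v w, fun v w => h.e₁ v w,
  fun u v => h.e₃ v u⟩, fun u v w hu hv hw => h.uuu v u w hv hu hw⟩
theorem s23 : InvU (LinearMap.lflip.toLinearMap ∘ₗ g) := ⟨⟨fun k hk u v w => h.inv k hk u w v, fun v w => h.e₁ w v,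
  fun u w => h.e₃ u w, fun u w => h.e₂ u w⟩, fun u v w hu hv hw => h.uuu u w v hu hw hv⟩

theorem t1 (hu : InT1 u) (hv : InT1 v) (hw : InT1 w) : g u v w = 0 := by
  rw [← h.inv _ tau_mem_M1, ← h.inv _ tau_mem_M1, h.uuu _ _ _ hu.tau hv.tau hw.tau]
theorem t2 (hu : InT2 u) (hv : InT2 v) (hw : InT2 w) : g u v w = 0 := by
  rw [← h.inv _ tau_mem_M1, h.uuu _ _ _ hu.tau hv.tau hw.tau]

theorem tyy (hu : InT1 u ∧ InT2 u) (hf : qV aOm • u = u) (hv : IsY v) (hw : IsY w) : g u v w = 0 := by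
  obtain ⟨a, b, h1, h2, h3, h4, rfl⟩ := hv.split
  obtain ⟨a', b', h1', h2', h3', h4', rfl⟩ := hw.split
  have m := CZ_le_M1 (qV_mem aOm)
  simp only [map_add, LinearMap.add_apply, h.t1 hu.1 h1 h1', h.t2 hu.2 h2 h2',
    h.char m (hf.trans (one_smul ℝ _).symm) (h3.trans (one_smul ℝ _).symm) h4' (by simp),
    h.char m (hf.trans (one_smul ℝ _).symm) h4 (h3'.trans (one_smul ℝ _).symm) (by simp), add_zero]

theorem uyy (hu : IsU u) (hv : IsY v) (hw : IsY w) : g u v w = 0 := by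
  refine hu.mem (P := LinearMap.ker ((g.flip v).flip w)) fun x hx => ?_
  obtain ⟨O, hO⟩ := exists_oct
  obtain ⟨c, hc, e⟩ := exists_conj₁ hx (short_eT hO)
  change g _ v w = 0
  rw [← h.inv _ (CZ_le_M1 hc), smul_aX hc e, h.tyy (aX_T hO).1 (aX_T hO).2 (hv.smul hc) (hw.smul hc)]

theorem ayy (ha : IsA a) (hv : IsY v) (hw : IsY w) : g a v w = 0 := by
  have := ha.mem (S := ⨅ v, ⨅ _ : IsY v, ⨅ w, ⨅ _ : IsY w, LinearMap.ker ((g.flip v).flip w)) ?_ ?_ ?_
  all_goals simp only [Submodule.mem_iInf, LinearMap.mem_ker, LinearMap.flip_apply] at *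
  · exact this v hv w hw
  · intro c hc u hu v hv w hw
    rw [← h.inv _ (CZ_le_M1 (inv_mem hc)), inv_smul_smul, hu _ (hv.smul (inv_mem hc)) _ (hw.smul (inv_mem hc))]
  · exact fun u hu v hv w hw => h.tyy hu.t (hu.1.qV _) hv hw
  · exact fun v _ w _ => h.e₁ v w

theorem aau (ha : IsA a) (hb : IsA b) (hu : IsU u) : g a b u = 0 := by
  refine hu.mem (P := LinearMap.ker (g a b)) fun x hx => ?_
  obtain ⟨q, hq⟩ := exists_cmQ hx.piQ_ne
  exact h.char (CZ_le_M1 (qV_mem q)) ((ha.qV q).trans (one_smul ℝ _).symm) ((hb.qV q).trans (one_smul ℝ _).symm)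
    (qV_smul_aX q x) (by simp [hq])

theorem axx (ha : IsA a) (hx : Short x) : g a (aX x) (aX x) = 0 := by
  obtain ⟨O, hO⟩ := exists_oct
  obtain ⟨c, hc, e⟩ := exists_conj₁ hx (short_eT hO)
  rw [← h.inv _ (CZ_le_M1 hc), smul_aX hc e]
  have hs := short_eT hO
  have hT := (aX_T hO).1
  have hd := fun y s hs => four_of_dt (y := y) (s := s) (nm_lT hO) hs (mk_lT hO)
  generalize hr : eT O 0 = r at hs hT hd ⊢
  set φ := (g.flip (aX r)).flip (aX r) with hφ
  have h0 : ∀ v, IsO v → φ v = 0 := fun v hv => h.t1 hv.t.1 hT.1 hT.1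
  have he : φ e4 = 0 := h.e₁ _ _
  have h4 : ∀ {y y'}, Short y → Short y' → ip (ax r) (ax y) = 4 → ip (ax r) (ax y') = 4 → φ (aP y) = φ (aP y') :=
    fun hy hy' e e' => by
      obtain ⟨k, hk, e1, e2⟩ := exists_conj₂ hs hy hs hy' e e'
      simp only [hφ, LinearMap.flip_apply]
      rw [← h.inv _ (CZ_le_M1 hk), smul_aX hk e1, smul_aP hk hy hy' e2]
  have hP : ∀ i j, i ≠ j → O.1 i = 1 → O.1 j = 1 → ip (ax r) (ax (eP 1 i j)) = 4 := fun i j e hi hj =>
    hd _ _ (nm_lP 1 e) (mk_lP 1 e) (by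
      rw [dot_comm]; change dotInt (vP 1 i j) (vT O 0) = _ ∨ dotInt (vP 1 i j) (vT O 0) = _
      rcases ori_cases 1 i j with e | e <;> simp [dot_vP, vT, hi, hj, e])
  have hW : ∀ i, O.1 i = 0 → ip (ax r) (ax (eW 0 i)) = 4 := fun i hi =>
    hd _ _ (nm_lW 0 i) (mk_lW 0 i) (.inl (by
      have : ∀ k, vT O 0 k * vW 0 i k = 2 * vz (O.1 k) := fun k => by
        by_cases h1 : k = i <;> simp_all [vW, vT, e1_apply]
      change ∑ k, vT O 0 k * vW 0 i k = _
      simp only [this, ← mul_sum, sum_vz, hO.1]; rfl))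
  set d : Pt → ℝ := fun i => φ (dg (Pi.single i 1)) with hd'
  have fP : ∀ i j, i ≠ j → φ (aP (eP 1 i j)) = 2 * d i + 2 * d j := fun i j e => by
    have := h0 _ (off_P 1 e)
    rw [map_sub, sub_eq_zero, ← mul_one (2 : ℝ), ← smul_eq_mul, Pi.single_smul, Pi.single_smul] at this
    simp only [this, map_add, map_smul, hd', smul_eq_mul]
  have fW : ∀ i, φ (aP (eW 0 i)) = d i := fun i => by
    have := h0 _ (off_W 0 i)
    rw [map_sub, sub_eq_zero] at this
    simp [this, he, hd']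
  have three : ∀ i, O.1 i = 1 → ∃ j l, i ≠ j ∧ i ≠ l ∧ j ≠ l ∧ O.1 j = 1 ∧ O.1 l = 1 := fun i hi => by
    obtain ⟨j, hj, l, hl, e⟩ := one_lt_card.1 (show 1 < ((support₂ O.1).erase i).card by
      have := pred_card_le_card_erase (s := support₂ O.1) (a := i)
      have h8 : (support₂ O.1).card = 8 := hO.1
      omega)
    simp only [mem_erase, support₂, mem_filter, mem_univ, true_and] at hj hl
    exact ⟨j, l, hj.1.symm, hl.1.symm, e, (z2_cases _).resolve_left hj.2, (z2_cases _).resolve_left hl.2⟩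
  obtain ⟨i0, hi0⟩ : ∃ i, (O : W) i = 0 := by
    by_contra! h
    have := hO.1
    rw [show (O : W) = 1 from funext fun i => (z2_cases _).resolve_left (h i)] at this
    simp at this
  have hk : ∀ i, d i = d i0 * (1 - 3 / 4 * vz (O.1 i)) := fun i => by
    rcases z2_cases (O.1 i) with e | e
    · simpa [e, fW] using h4 (short_eW _ _) (short_eW _ _) (hW i e) (hW i0 hi0)
    obtain ⟨j, l, e1, e2, e3, hj, hl⟩ := three i e
    have a1 := h4 (short_eP _ e1) (short_eW _ _) (hP _ _ e1 e hj) (hW i0 hi0)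
    have a2 := h4 (short_eP _ e2) (short_eW _ _) (hP _ _ e2 e hl) (hW i0 hi0)
    have a3 := h4 (short_eP _ e3) (short_eW _ _) (hP _ _ e3 hj hl) (hW i0 hi0)
    rw [fP _ _ ‹_›, fW] at a1 a2 a3
    simp only [e, vz_one, Int.cast_one]; linarith
  have hs : ∑ i, d i = 0 := by rw [← he, ← sum_dg, map_sum]
  have h8 : ∑ i, (vz (O.1 i) : ℝ) = 8 := by exact_mod_cast (sum_vz _).trans (congrArg _ hO.1)
  rw [sum_congr rfl fun i _ => hk i, ← mul_sum, sum_sub_distrib, ← mul_sum, h8] at hs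
  have hz : ∀ i, d i = 0 := fun i => by
    rw [hk i, show d i0 = 0 by norm_num [show Fintype.card Pt = 24 from rfl] at hs; exact hs, zero_mul]
  have := h0 _ (ha.smul hc).off
  rw [map_sub, sub_eq_zero, dg_eq_sum] at this
  exact this.trans (by simp [show ∀ i, φ (dg (Pi.single i 1)) = 0 from hz])

theorem auu (ha : IsA a) (hu : IsU u) (hv : IsU v) : g a u v = 0 := by
  refine hu.mem (P := LinearMap.ker ((g a).flip v)) fun x hx => hv.mem (P := LinearMap.ker (g a (aX x))) fun y hy => ?_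
  change g a _ _ = 0
  by_cases e : piQ y = piQ x
  · rcases piQ_eq_iff.1 e with rfl | rfl <;> simp [aX_zQ, h.axx ha hx]
  obtain ⟨q, hq⟩ := exists_cmQ (x := x * y) fun e' => e (by
    rw [piQ_mul, add_eq_zero_iff_neg_eq, l2_neg] at e'; exact e'.symm)
  exact h.char (CZ_le_M1 (qV_mem q)) ((ha.qV q).trans (one_smul ℝ _).symm) (qV_smul_aX q x) (qV_smul_aX q y)
    (by rw [one_mul, ← sg_add, ← cmQ_mul, hq, sg_one])

theorem aoo (ha : IsA a) (hb : IsO b) (hc : IsO c) : g a b c = 0 := by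
  rw [← sub_add_cancel a (dg fun i => a.1.1 i i), map_add, LinearMap.add_apply, LinearMap.add_apply,
    h.t1 ha.off.t.1 hb.t.1 hc.t.1, ← h.inv _ tau_mem_M1, tau_dg, h.auu (isA_dg _) hb.t.2.tau hc.t.2.tau, add_zero]

theorem aao (ha : IsA a) (hb : IsA b) (hc : IsO c) : g a b c = 0 := by
  rw [← sub_add_cancel b (dg fun i => b.1.1 i i), map_add, LinearMap.add_apply, h.aoo ha hb.off hc, zero_add,
    ← sub_add_cancel a (dg fun i => a.1.1 i i), map_add, LinearMap.add_apply, LinearMap.add_apply,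
    show g _ _ c = 0 from h.s12.aoo (isA_dg _) ha.off hc, ← h.inv _ tau_mem_M1, tau_dg, tau_dg,
    h.aau (isA_dg _) (isA_dg _) hc.t.2.tau, add_zero]

theorem aaa (ha : IsA a) (hb : IsA b) (hc : IsA c) : g a b c = 0 := by
  have o1 : ∀ {a b c}, IsO a → IsA b → IsA c → g a b c = 0 := fun ha hb hc => h.s12.s23.aao hb hc ha
  have o2 : ∀ {a b c}, IsA a → IsO b → IsA c → g a b c = 0 := fun ha hb hc => h.s23.aao ha hc hb
  obtain ⟨x, y, hx, hy, h4, h0⟩ := exists_base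
  have p1 : ∀ i j, g (aP (eW 0 i)) (aP (eW 0 j)) c = g (dg (Pi.single i 1)) (dg (Pi.single j 1)) c := fun i j => by
    have a1 := o1 (off_W 0 i) (isA_aP (eW 0 j)) hc
    have a2 := o2 (isA_dg (Pi.single i 1)) (off_W 0 j) hc
    simp only [map_sub, map_add, map_smul, LinearMap.sub_apply, LinearMap.add_apply, LinearMap.smul_apply, h.e₁, h.e₂,
      smul_zero, add_zero] at a1 a2
    linarith
  have p2 : ∀ i j, g (dg (Pi.single i 1)) (dg (Pi.single j 1)) c = g (dg (Pi.single i 1)) (dg (Pi.single i 1)) c :=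
    fun i j => by
      by_cases e : i = j
      · rw [e]
      obtain ⟨k, hk, e1, e2⟩ := exists_conj₂ (short_eW 0 i) (short_eW 0 j) hx hy (four_W e) h4
      have := o2 (isA_aP x) h0 (hc.smul hk)
      rw [map_sub, LinearMap.sub_apply, sub_eq_zero] at this
      rw [← p1, ← p1, ← h.inv _ (CZ_le_M1 hk), ← h.inv _ (CZ_le_M1 hk) _ (aP (eW 0 i)), smul_aP hk (short_eW _ _) hx e1,
        smul_aP hk (short_eW _ _) hy e2, this]
  have p3 : ∀ i j, g (dg (Pi.single i 1)) (dg (Pi.single j 1)) c = 0 := fun i j => by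
    have := h.e₂ (dg (Pi.single i 1)) c
    rw [← sum_dg, map_sum, LinearMap.sum_apply, sum_congr rfl fun j _ => p2 i j] at this
    simpa [p2 i j] using this
  have a1 := o1 ha.off hb hc
  have a2 := o2 (isA_dg fun i => a.1.1 i i) hb.off hc
  simp only [map_sub, LinearMap.sub_apply, sub_eq_zero] at a1 a2
  rw [a1, a2, dg_eq_sum, dg_eq_sum fun i => b.1.1 i i]
  simp [p3]

theorem eyy (hu : u.1.2.2 = 0) (hv : IsY v) (hw : IsY w) : g u v w = 0 := by
  obtain ⟨a, b, c, ha, hb, hc, rfl⟩ := exists_parts u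
  have : c = 0 := by rw [hc.eq, show c.1.2.2 = 0 by simpa [ha.2, hb.2] using hu, map_zero]
  simp [this, h.ayy ha hv hw, h.uyy hb hv hw]

theorem eee (hu : u.1.2.2 = 0) (hv : v.1.2.2 = 0) (hw : w.1.2.2 = 0) : g u v w = 0 := by
  have key : ∀ u : V, u.1.2.2 = 0 → ∃ a b, IsA a ∧ IsU b ∧ u = a + b := fun u hu => by
    obtain ⟨a, b, c, ha, hb, hc, rfl⟩ := exists_parts u
    exact ⟨a, b, ha, hb, by rw [hc.eq, show c.1.2.2 = 0 by simpa [ha.2, hb.2] using hu, map_zero, add_zero]⟩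
  obtain ⟨a, b, ha, hb, rfl⟩ := key u hu
  obtain ⟨a', b', ha', hb', rfl⟩ := key v hv
  obtain ⟨a'', b'', ha'', hb'', rfl⟩ := key w hw
  simp only [map_add, LinearMap.add_apply, h.aaa ha ha' ha'', h.aau ha ha' hb'', h.auu ha hb' hb'', h.uuu _ _ _ hb hb' hb'',
    show g a b' a'' = 0 from h.s23.aau ha ha'' hb', show g b a' a'' = 0 from h.s12.s23.aau ha' ha'' hb,
    show g b a' b'' = 0 from h.s12.auu ha' hb hb'', show g b b' a'' = 0 from h.s23.s12.auu ha'' hb hb', add_zero]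

theorem eq_zero : g = 0 := by
  ext u v w
  have key : ∀ u : V, ∃ a b : V, a.1.2.2 = 0 ∧ IsY b ∧ u = a + b := fun u => by
    obtain ⟨a, b, c, ha, hb, hc, rfl⟩ := exists_parts u
    exact ⟨_, c, by simp [ha.2, hb.2], hc, rfl⟩
  obtain ⟨a, b, ha, hb, rfl⟩ := key u
  obtain ⟨a', b', ha', hb', rfl⟩ := key v
  obtain ⟨a'', b'', ha'', hb'', rfl⟩ := key w
  have m := CZ_le_M1 (qV_mem zQ)
  have z : ∀ {a : V}, a.1.2.2 = 0 → qV zQ • a = (1 : ℝ) • a := fun h => (z_smul_of h).trans (one_smul _ _).symm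
  simp only [map_add, LinearMap.add_apply, h.eee ha ha' ha'', h.eyy ha hb' hb'', h.char m hb.z hb'.z hb''.z (by simp),
    h.char m (z ha) (z ha') hb''.z (by simp), h.char m (z ha) hb'.z (z ha'') (by simp),
    h.char m hb.z (z ha') (z ha'') (by simp), show g b a' b'' = 0 from h.s12.eyy ha' hb hb'',
    show g b b' a'' = 0 from h.s23.s12.eyy ha'' hb hb', add_zero, LinearMap.zero_apply]

end InvU

end Cfsg.Lib.Griess
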