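import Cfsg.Agent.Lib.Mon.Nor2

/-! # The 196883-dimensional module is irreducible and carries a unique invariant product -/

set_option autoImplicit false

namespace Cfsg.Lib.Griess

open Subgroup MulAction Matrix Cfsg.Lib.Leech Cfsg.Lib.ES Finset Module

/-- the trace -/
noncomputable def trV : V →ₗ[ℝ] ℝ := (traceLinearMap Pt ℝ ℝ).comp ((LinearMap.fst ℝ _ _).comp V.subtype)
/-- the projection along the identity -/
noncomputable def p0 : V →ₗ[ℝ] V := LinearMap.id - (trV.smulRight ((1 / 24 : ℝ) • e4))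
/-- the cubic form on the trace-zero part -/
noncomputable def tf0 : Tri3 := (mu.compl₁₂ p0 p0).compr₂ (B.compl₁₂ LinearMap.id p0)

variable {u v w : V} {k : Aut}

theorem trV_apply (v : V) : trV v = v.1.1.trace := rfl
theorem trV_eq (v : V) : trV v = B e4 v := (ip_e4 v).symm
theorem trV_e4 : trV e4 = 24 := by simp [trV_apply, e4, inA]
theorem trV_smul (hk : k ∈ M1) (v : V) : trV (k • v) = trV v := by rw [trV_eq, ← smul_e4 hk, B_smul, trV_eq]
theorem p0_apply (v : V) : p0 v = v - (trV v / 24) • e4 := by simp [p0, smul_smul, div_eq_mul_inv]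
theorem p0_of (h : trV v = 0) : p0 v = v := by simp [p0_apply, h]
theorem p0_e4 : p0 e4 = 0 := by simp [p0_apply, trV_e4]
theorem trV_p0 (v : V) : trV (p0 v) = 0 := by simp [p0_apply, trV_e4]
theorem p0_smul (hk : k ∈ M1) (v : V) : p0 (k • v) = k • p0 v := by
  rw [p0_apply, p0_apply, trV_smul hk, smul_sub, smul_comm, smul_e4 hk]
theorem tf0_apply (u v w : V) : tf0 u v w = tf (p0 u) (p0 v) (p0 w) := by simp [tf0, B_mu]
theorem p0_inY (Y : YS) : p0 (inY Y) = inY Y := p0_of (by simp [trV_apply, inY])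

theorem inv0_tf0 : Inv0 tf0 := ⟨fun k hk u v w => by simp only [tf0_apply, p0_smul hk, tf_smul_smul],
  fun v w => by simp [tf0, p0_e4], fun v w => by simp [tf0, p0_e4], fun v w => by simp [tf0, p0_e4]⟩

theorem tf0_aX {x y : Q} (hx : Short x) (hy : Short y) (h : Short (x * y)) : tf0 (aX x) (aX y) (aX (x * y)) = 1 := by
  have e : ∀ {x}, Short x → p0 (aX x) = aX x := fun h => p0_of (by simp [trV_apply, coe_aX h])
  have : ∑ a, ∑ b, dX x a * dX y b * dX (x * y) (a * b) = 4 := by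
    have e1 : ∀ a, ∑ b, dX x a * dX y b * dX (x * y) (a * b) = 2 * dX (x * y) (a * y) * dX x a := fun a => by
      have := sum_dX y fun b => dX (x * y) (a * b)
      rw [← mul_assoc, ← zQ_comm, mul_assoc, dX_z] at this
      simp only [mul_assoc (dX x a), ← mul_sum, mul_comm (dX y _), this]; ring
    simp only [e1, sum_dX x fun a => 2 * dX (x * y) (a * y), mul_assoc zQ, dX_z, dX_self]; norm_num
  rw [tf0_apply, e hx, e hy, e h, coe_aX hx, coe_aX hy, coe_aX h]
  simp [tf, tAAA, tAXX, tAYY, tXYY, tXXX, this]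

/-- uniqueness of the invariant trilinear form -/
theorem Inv0.unique {g : Tri3} (h : Inv0 g) : ∃ c : ℝ, g = c • tf0 := by
  obtain ⟨x0, y0, hx0, hy0, h4, -⟩ := exists_base
  have h0 := (twoA_ax hx0 hy0 h4).1
  set f := g + (-g (aX x0) (aX y0) (aX (x0 * y0))) • tf0 with hf
  suffices InvU f from ⟨g (aX x0) (aX y0) (aX (x0 * y0)), LinearMap.ext₂ fun u v => LinearMap.ext fun w => by
    simpa [hf, add_neg_eq_zero] using congr($(this.eq_zero) u v w)⟩
  have hI : Inv0 f := ⟨fun k hk u v w => by simp [hf, h.inv k hk, inv0_tf0.inv k hk], fun v w => by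
    simp [hf, h.e₁, inv0_tf0.e₁], fun v w => by simp [hf, h.e₂, inv0_tf0.e₂], fun v w => by simp [hf, h.e₃, inv0_tf0.e₃]⟩
  have hb : f (aX x0) (aX y0) (aX (x0 * y0)) = 0 := by simp [hf, tf0_aX hx0 hy0 h0]
  clear_value f
  refine ⟨hI, fun u v w hu hv hw => hu.mem (P := LinearMap.ker ((f.flip v).flip w)) fun x hx =>
    hv.mem (P := LinearMap.ker ((f (aX x)).flip w)) fun y hy => hw.mem (P := LinearMap.ker (f (aX x) (aX y))) fun t ht => ?_⟩
  change f _ _ _ = 0
  by_cases e : piQ t = piQ (x * y)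
  · have hs := (short_congr' e).1 ht
    obtain ⟨r, hr, e1⟩ := id hx
    obtain ⟨s, hs', e2⟩ := id hy
    obtain ⟨c, hc, c1, c2⟩ := exists_conj₂ hx hy hx0 hy0 (four_of_dt hr hs' e1 e2 (dot_of_short_mul hr hs' e1 e2 hs)) h4
    have : f (aX x) (aX y) (aX (x * y)) = 0 := by
      rw [← hI.inv _ (CZ_le_M1 hc), smul_aX hc c1, smul_aX hc c2, smul_aX hc (conj_mul c1 c2), hb]
    rcases piQ_eq_iff.1 e with rfl | rfl <;> simp [aX_zQ, this]
  obtain ⟨q, hq⟩ := exists_cmQ (x := x * y * t) fun e' => e (by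
    rw [piQ_mul, add_eq_zero_iff_neg_eq, l2_neg] at e'; exact e'.symm)
  exact hI.char (CZ_le_M1 (qV_mem q)) (qV_smul_aX q x) (qV_smul_aX q y) (qV_smul_aX q t)
    (by rw [← sg_add, ← sg_add, ← cmQ_mul, ← cmQ_mul, hq, sg_one])

theorem eq_zero_of_tf0 (h0 : trV u = 0) (h : tf0 u = 0) : u = 0 := by
  have key : ∀ k ∈ M1, IsY (k • u) := fun k hk => by
    have e : Lop (k • u).1 = 0 := LinearMap.ext fun Y => by
      have := inv0_tf0.inv k hk u (k⁻¹ • inY (Lop (k • u).1 Y)) (k⁻¹ • inY Y)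
      rw [h, smul_inv_smul, smul_inv_smul, tf0_apply, p0_of ((trV_smul hk u).trans h0), p0_inY, p0_inY, tf_inY, trace_tmul] at this
      ext i j
      have h2 : ∑ i, ∑ j, Lop (k • u).1 Y i j * Lop (k • u).1 Y i j = 0 := by simpa using this
      exact mul_self_eq_zero.1 ((sum_eq_zero_iff_of_nonneg fun j _ => mul_self_nonneg _).1
        ((sum_eq_zero_iff_of_nonneg fun i _ => sum_nonneg fun j _ => mul_self_nonneg _).1 h2 i (mem_univ _)) j (mem_univ _))
    have := eq_zero_of_Lop (u := k • u - inY (k • u).1.2.2) (by simp [inY]) (by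
      rw [Submodule.coe_sub, map_sub, e, Lop_def]; simp [inY]; ext; simp)
    rw [sub_eq_zero.1 this]; exact isY_inY _
  have h1 := key 1 (one_mem _)
  have h2 : (co (tau • u : V)).u1 = 0 := by ext; simp [co, (key _ tau_mem_M1).2]
  have h3 : (co (tau • tau • u : V)).u1 = 0 := by
    ext; rw [← mul_smul]; simp [co, (key _ (mul_mem tau_mem_M1 tau_mem_M1)).2]
  simp only [co_tau_smul, tauC, one_smul] at h1 h2 h3
  rw [h1.eq, show u.1.2.2 = 0 from Matrix.ext fun i j => by simp [Y_eq, h2, h3], map_zero]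

theorem exists_proj {S : Submodule ℝ V} (h : ∀ k ∈ M1, ∀ v ∈ S, k • v ∈ S) : ∃ π : V →ₗ[ℝ] V, (∀ v ∈ S, π v = v) ∧
    (∀ v, (∀ s ∈ S, B s v = 0) → π v = 0) ∧ (∀ v, π v ∈ S) ∧ ∀ k ∈ M1, ∀ v, π (k • v) = k • π v := by
  have hc : IsCompl S (B.orthogonal S) := B.isCompl_orthogonal_of_restrict_nondegenerate
    (fun u v e => (B_comm v u).trans e)
    ⟨fun v hv => Subtype.ext (eq_zero_of_B (u := v.1) (hv v)), fun v hv => Subtype.ext (eq_zero_of_B (u := v.1) (hv v))⟩
  have p1 : ∀ v ∈ S, S.projection _ hc v = v := fun v hv => Submodule.projection_apply_left hc ⟨v, hv⟩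
  have p2 : ∀ v, (∀ s ∈ S, B s v = 0) → S.projection _ hc v = 0 := fun v hv => Submodule.projection_apply_right hc ⟨v, hv⟩
  refine ⟨_, p1, p2, Submodule.projection_apply_mem hc, fun k hk v => ?_⟩
  obtain ⟨a, ha, b, hb, rfl⟩ := Submodule.mem_sup.1 (hc.sup_eq_top.ge (Submodule.mem_top (x := v)))
  rw [smul_add, map_add, map_add, p1 _ ha, p2 _ hb, p1 _ (h k hk a ha), p2 (k • b), add_zero, add_zero]
  intro s hs
  have : B (k⁻¹ • s) b = 0 := hb _ (h _ (inv_mem hk) s hs)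
  rwa [← B_smul k, smul_inv_smul] at this

/-- irreducibility -/
theorem eq_of_invariant {S : Submodule ℝ V} (h0 : S ≤ LinearMap.ker trV) (h : ∀ k ∈ M1, ∀ v ∈ S, k • v ∈ S) :
    S = ⊥ ∨ S = LinearMap.ker trV := by
  obtain ⟨π, p1, p2, p3, p4⟩ := exists_proj h
  obtain ⟨c, e⟩ := Inv0.unique (g := tf0 ∘ₗ π) ⟨fun k hk u v w => by simp [p4 k hk, inv0_tf0.inv k hk], fun v w => by
    rw [LinearMap.comp_apply, p2 e4 fun s hs => (B_comm _ _).trans ((trV_eq s).symm.trans (h0 hs))]; simp,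
    fun _ _ => inv0_tf0.e₂ _ _, fun _ _ => inv0_tf0.e₃ _ _⟩
  have p5 : ∀ v, trV v = 0 → π v = c • v := fun v hv => sub_eq_zero.1 (eq_zero_of_tf0
    (by simp [hv, show trV (π v) = 0 from h0 (p3 v)]) (LinearMap.ext₂ fun a b => by
      simpa [sub_eq_zero] using congr($e v a b)))
  by_cases hc : c = 0
  · exact .inl (eq_bot_iff.2 fun v hv => by rw [← p1 v hv, p5 v (h0 hv), hc, zero_smul]; exact zero_mem _)
  · exact .inr (h0.antisymm fun v hv => (S.smul_mem_iff hc).1 (p5 v hv ▸ p3 v))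

theorem finrank_ker_trV : finrank ℝ (LinearMap.ker trV) = 196883 := by
  have := trV.finrank_range_add_finrank_ker
  rw [finrank_V, LinearMap.range_eq_top.2 fun t => ⟨(t / 24) • e4, by simp [trV_e4]⟩, finrank_top, finrank_self] at this
  omega

theorem exists_equiv_ker : Nonempty ((Fin 196883 → ℝ) ≃ₗ[ℝ] LinearMap.ker trV) :=
  have key : ∀ (W : Type) [AddCommGroup W] [Module ℝ W] [Module.Finite ℝ W], finrank ℝ W = 196883 →
    Nonempty ((Fin 196883 → ℝ) ≃ₗ[ℝ] W) := fun W _ _ _ h => ⟨(finBasisOfFinrankEq ℝ W h).equivFun.symm⟩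
  by have := key (LinearMap.ker trV) finrank_ker_trV; exact this

/-- The Norton pair of a group isomorphic to `M1`. -/
theorem norton_pair {G : Type*} [Group G] (e : G ≃* M1) {N : Type*} [AddCommGroup N] [Module ℝ N]
    (ι : N ≃ₗ[ℝ] LinearMap.ker trV) : ∃ ρ : Representation ℝ G N, Function.Injective ρ ∧
    (∀ W : Submodule ℝ N, (∀ g, W.map (ρ g) ≤ W) → W = ⊥ ∨ W = ⊤) ∧
    (∃ B : LinearMap.BilinForm ℝ N, B ≠ 0 ∧ (∀ u v, B u v = B v u) ∧ ∀ g u v, B (ρ g u) (ρ g v) = B u v) ∧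
    ∃ m : N →ₗ[ℝ] N →ₗ[ℝ] N, m ≠ 0 ∧ (∀ u v, m u v = m v u) ∧ (∀ g u v, m (ρ g u) (ρ g v) = ρ g (m u v)) ∧
      ∀ m' : N →ₗ[ℝ] N →ₗ[ℝ] N, (∀ g u v, m' (ρ g u) (ρ g v) = ρ g (m' u v)) → ∃ c : ℝ, m' = c • m := by
  let j : N →ₗ[ℝ] V := (LinearMap.ker trV).subtype ∘ₗ ι.toLinearMap
  let p : V →ₗ[ℝ] N := ι.symm.toLinearMap ∘ₗ p0.codRestrict _ trV_p0
  have jp : ∀ v, j (p v) = p0 v := fun v => congrArg Subtype.val (ι.apply_symm_apply _)
  have j0 : ∀ u, trV (j u) = 0 := fun u => (ι u).2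
  have ji : Function.Injective j := (Submodule.injective_subtype _).comp ι.injective
  have pj : ∀ u, p (j u) = u := fun u => ji (by rw [jp, p0_of (j0 u)])
  have pe : p e4 = 0 := ji (by rw [jp, p0_e4, map_zero])
  let ρ : Representation ℝ G N :=
    { toFun := fun g => p ∘ₗ (e g : Aut).1.toLinearMap ∘ₗ j
      map_one' := LinearMap.ext fun u => by simpa using pj u
      map_mul' := fun g h => LinearMap.ext fun u => ji (by
        change j (p ((e (g * h) : Aut) • j u)) = j (p ((e g : Aut) • j (p ((e h : Aut) • j u))))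
        simp only [jp, p0_smul (Subtype.prop _), p0_of (j0 u), map_mul, Subgroup.coe_mul, mul_smul]) }
  have jρ : ∀ g u, j (ρ g u) = (e g : Aut) • j u := fun g u => by
    change j (p ((e g : Aut) • j u)) = _
    rw [jp, p0_smul (Subtype.prop _), p0_of (j0 u)]
  have ρp : ∀ g v, ρ g (p v) = p ((e g : Aut) • v) := fun g v => ji (by rw [jρ, jp, jp, p0_smul (Subtype.prop _)])
  have Y0 : ∃ u, j u ≠ 0 ∧ qV zQ • j u = (-1 : ℝ) • j u := ⟨p (inY (.of fun _ _ => 1)), by
    rw [jp, p0_inY]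
    exact ⟨fun h => by simpa [inY] using congr(($h).1.2.2 0 none), (isY_inY _).z⟩⟩
  obtain ⟨u0, hu0, hz⟩ := Y0
  have sep : ∀ u, (∀ w, B (j u) (j w) = 0) → u = 0 := fun u h => ji (by rw [eq_zero_of_B (h u), map_zero])
  have Bp : ∀ v w, B (j (p v)) (j w) = B v (j w) := fun v w => by simp [jp, p0_apply, ← trV_eq, j0]
  refine ⟨ρ, ?_, fun W hW => ?_, ⟨B.compl₁₂ j j, fun h => hu0 (eq_zero_of_B congr($h u0 u0)), fun u v => B_comm _ _,
    fun g u v => by simp only [LinearMap.compl₁₂_apply, jρ, B_smul]⟩, (mu.compl₁₂ j j).compr₂ p, fun h => ?_,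
    fun u v => by simp [mu_comm], fun g u v => by simp [jρ, ρp, smul_mu], fun m' hm => ?_⟩
  · have := e.isSimpleGroup
    refine (MonoidHom.ker_eq_bot_iff _).1 ((MonoidHom.normal_ker ρ).eq_bot_or_eq_top.resolve_right fun h => hu0 ?_)
    have := jρ (e.symm (qM zQ)) u0
    rw [show ρ _ = 1 from h.ge (mem_top _), e.apply_symm_apply] at this
    have := this.trans hz
    rw [Module.End.one_apply] at this
    linear_combination (norm := module) (1 / 2 : ℝ) • this
  · refine (eq_of_invariant (S := W.map j) (by rintro _ ⟨u, -, rfl⟩; exact j0 u) ?_).imp (fun h => ?_) fun h => ?_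
    · rintro k hk _ ⟨u, hu, rfl⟩
      exact ⟨_, hW (e.symm ⟨k, hk⟩) ⟨u, hu, rfl⟩, by rw [jρ, e.apply_symm_apply]⟩
    · exact Submodule.map_injective_of_injective ji (h.trans (Submodule.map_bot _).symm)
    · exact eq_top_iff.2 fun u _ => by obtain ⟨v, hv, e⟩ := h.ge (j0 u); exact ji e ▸ hv
  · refine hu0 (eq_zero_of_tf0 (j0 _) (LinearMap.ext₂ fun v w => ?_))
    have := Bp (mu (j u0) (j (p v))) (p w)
    rw [show p (mu (j u0) (j (p v))) = 0 from congr($h u0 (p v)), B_mu, jp, jp] at this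
    rw [tf0_apply, p0_of (j0 _), ← this]; simp
  · obtain ⟨c, h⟩ := Inv0.unique (g := (m'.compl₁₂ p p).compr₂ (B.compl₁₂ j p0)) ⟨fun k hk u v w => by
      obtain ⟨g, hg⟩ := e.surjective ⟨k, hk⟩
      obtain rfl : (e g : Aut) = k := congrArg Subtype.val hg
      simp [← ρp, hm, jρ, p0_smul hk, B_smul], fun _ _ => by simp [pe], fun _ _ => by simp [pe],
      fun _ _ => by simp [p0_e4]⟩
    refine ⟨c, LinearMap.ext₂ fun u v => sub_eq_zero.1 (sep _ fun w => ?_)⟩
    have := congr($h (j u) (j v) (j w))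
    simp only [LinearMap.compr₂_apply, LinearMap.compl₁₂_apply, pj, p0_of (j0 _), LinearMap.smul_apply, tf0_apply] at this
    simp [this, Bp, B_mu]

end Cfsg.Lib.Griess
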