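import Mathlib

/-! An orthogonal representation of odd degree has a trivial composition factor modulo 2. -/

set_option autoImplicit false

namespace Cfsg.Lib.Griess

open Module Submodule Finset Matrix

universe u

variable {K : Type} [Field K] (O : ValuationSubring K) {ι : Type} [Finite ι]

theorem smul_mem' {V : Type u} [AddCommGroup V] [Module K V] {L : Submodule O V} {a : K} (ha : a ∈ O) {x : V}
    (hx : x ∈ L) : a • x ∈ L := L.smul_mem ⟨a, ha⟩ hx

/-- a lattice of odd rank has an orthogonal summand of rank one -/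
theorem exists_split (n : ℕ) : ∀ {V : Type u} [AddCommGroup V] [Module K V] [FiniteDimensional K V]
    (B : LinearMap.BilinForm K V), (∀ u v, B u v = B v u) → (∀ v, B v v = 0 → v = 0) → ∀ s : ι → V,
      span K (Set.range s) = ⊤ → finrank K V = 2 * n + 1 →
      ∃ v ∈ span O (Set.range s), v ≠ 0 ∧ ∀ i, B v (s i) / B v v ∈ O := by
  induction n using Nat.strong_induction_on with
  | _ n ih =>
  intro V _ _ _ B hs ha s h1 h2
  obtain ⟨i0, h0⟩ : ∃ i, s i ≠ 0 := by
    by_contra! h
    rw [← finrank_top, ← h1, span_eq_bot.2 (by simpa), finrank_bot] at h2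
    omega
  have : Nonempty ι := ⟨i0⟩
  obtain ⟨⟨p, q⟩, h3⟩ := Finite.exists_max fun a : ι × ι => O.valuation (B (s a.1) (s a.2))
  dsimp only at h3
  have h4 : B (s p) (s q) ≠ 0 := fun e => h0 (ha _ (by simpa [e] using h3 (i0, i0)))
  have h5 : ∀ i j, B (s i) (s j) / B (s p) (s q) ∈ O := fun i j => by
    rw [← O.valuation_le_one_iff, map_div₀]; exact div_le_one_of_le₀ (h3 (i, j)) zero_le
  have key : ∀ r, ¬ O.valuation (B (s r) (s r) / B (s p) (s q)) < 1 →
      ∃ v ∈ span O (Set.range s), v ≠ 0 ∧ ∀ i, B v (s i) / B v v ∈ O := fun r h => by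
    have e : B (s r) (s r) ≠ 0 := fun e => h (by simp [e])
    refine ⟨s r, subset_span ⟨r, rfl⟩, fun e' => e (by simp [e']), fun i => ?_⟩
    rw [map_div₀, not_lt, one_le_div₀ (zero_lt_iff.2 (by simpa))] at h
    rw [← O.valuation_le_one_iff, map_div₀]; exact div_le_one_of_le₀ ((h3 (r, i)).trans h) zero_le
  by_contra hc
  have a1 := not_not.1 (mt (key p) hc)
  have a2 := not_not.1 (mt (key q) hc)
  set α := B (s p) (s p) / B (s p) (s q) with hα
  set β := B (s q) (s q) / B (s p) (s q) with hβ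
  have a3 : O.valuation (1 - α * β) = 1 :=
    O.valuation.map_one_sub_of_lt (by rw [map_mul]; exact mul_lt_one_of_nonneg_of_lt_one_left zero_le a1 a2.le)
  have a4 : 1 - α * β ≠ 0 := fun e => by simp [e] at a3
  have a5 : (1 - α * β)⁻¹ ∈ O := by rw [← O.valuation_le_one_iff, map_inv₀, a3, inv_one]
  let φ : V →ₗ[K] K × K := (B (s p)).prod (B (s q))
  let ψ : K × K →ₗ[K] V := ((1 - α * β)⁻¹ / B (s p) (s q)) •
    ((LinearMap.toSpanSingleton K V (s q - β • s p)).coprod (LinearMap.toSpanSingleton K V (s p - α • s q)))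
  have a6 : ∀ x, φ (ψ x) = x := fun x => by
    have e1 : B (s p) (s p) = α * B (s p) (s q) := by rw [hα, div_mul_cancel₀ _ h4]
    have e2 : B (s q) (s q) = β * B (s p) (s q) := by rw [hβ, div_mul_cancel₀ _ h4]
    ext <;> simp [φ, ψ, e1, e2, hs (s q) (s p)] <;> field_simp
  have a7 := φ.finrank_range_add_finrank_ker
  rw [LinearMap.range_eq_top.2 fun x => ⟨_, a6 x⟩, finrank_top, finrank_prod, finrank_self] at a7
  let P : V →ₗ[K] LinearMap.ker φ := (LinearMap.id - ψ ∘ₗ φ).codRestrict _ fun x => by simp [a6]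
  obtain ⟨v, b1, b2, b3⟩ := ih (n - 1) (by omega) (B.restrict (LinearMap.ker φ)) (fun u v => hs u v)
    (fun v h => Subtype.ext (ha v h)) (P ∘ s) (by
      rw [Set.range_comp, ← map_span, h1, Submodule.map_top, LinearMap.range_eq_top]
      exact fun x => ⟨x, Subtype.ext (by simp [P, LinearMap.mem_ker.1 x.2])⟩) (by omega)
  refine hc ⟨v, ?_, fun e => b2 (Subtype.ext e), fun i => ?_⟩
  · refine span_induction (p := fun (v : LinearMap.ker φ) _ => (v : V) ∈ span O (Set.range s)) ?_ (zero_mem _)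
      (fun _ _ _ _ => add_mem) (fun a _ _ => smul_mem _ a) b1
    rintro _ ⟨i, rfl⟩
    have m : ∀ r, s r ∈ span O (Set.range s) := fun r => subset_span ⟨r, rfl⟩
    convert sub_mem (m i) (smul_mem' O a5 (add_mem (smul_mem' O (h5 p i) (sub_mem (m q) (smul_mem' O (h5 q q) (m p))))
      (smul_mem' O (h5 q i) (sub_mem (m p) (smul_mem' O (h5 p p) (m q)))))) using 1
    simp [P, φ, ψ]
    module
  · have e := Prod.ext_iff.1 (LinearMap.mem_ker.1 v.2)
    simpa [P, φ, ψ, hs v (s p), hs v (s q), show B (s p) v = 0 from e.1, show B (s q) v = 0 from e.2] using b3 i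

variable {V : Type u} [AddCommGroup V] [Module K V] {n : ℕ}

theorem exists_basis (e : Basis (Fin n) K V) (s : ι → V) {f : Fin n → ι} (h : e.det (s ∘ f) ≠ 0) :
    ∃ b : Basis (Fin n) K V, (∀ j, ∃ i, b j = s i) ∧ ∀ i j, b.repr (s i) j ∈ O := by
  have : Nonempty (Fin n → ι) := ⟨f⟩
  obtain ⟨g, hg⟩ := Finite.exists_max fun g : Fin n → ι => O.valuation (e.det (s ∘ g))
  have h0 : e.det (s ∘ g) ≠ 0 := fun e => h (by simpa [e] using hg f)
  obtain ⟨h1, h2⟩ := (e.is_basis_iff_det (v := s ∘ g)).2 h0.isUnit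
  refine ⟨Basis.mk h1 h2.ge, fun j => ⟨g j, Basis.mk_apply ..⟩, fun i j => (O.valuation_le_one_iff _).1 ?_⟩
  have h4 := hg (Function.update g j i)
  rw [Function.comp_update] at h4
  erw [← LinearMap.congr_fun (e.det_smul_mk_coord_eq_det_update h1 h2.ge j) (s i)] at h4
  rwa [LinearMap.smul_apply, smul_eq_mul, map_mul, mul_le_iff_le_one_right (zero_lt_iff.2 ((map_ne_zero _).2 h0))] at h4

omit [Finite ι] in
theorem exists_two [CharZero K] : ∃ O : ValuationSubring K, (2 : K) ∈ O.nonunits := by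
  obtain ⟨O, -, h⟩ := Ideal.image_subset_nonunits_valuationSubring (A := (⊥ : Subring K)) (Ideal.span {2}) (by
    rw [Ne, Ideal.span_singleton_eq_top, isUnit_iff_exists_inv]
    rintro ⟨⟨b, n, rfl⟩, hb⟩
    have h1 : (2 : K) * (n : K) = 1 := congrArg Subtype.val hb
    have h2 : (2 : ℤ) * n = 1 := by exact_mod_cast h1
    omega)
  exact ⟨O, h ⟨2, Ideal.subset_span rfl, rfl⟩⟩

/-- a finitely generated subring of `O` has a finite quotient field of characteristic two -/
theorem exists_spec (h : (2 : K) ∈ O.nonunits) {t : ι → K} (ht : ∀ i, t i ∈ O) : ∃ (R : Subalgebra ℤ K) (F : Type)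
    (_ : Field F) (_ : Fintype F) (_ : R →+* F), CharP F 2 ∧ ∀ i, t i ∈ R := by
  let R := Algebra.adjoin ℤ (Set.range t)
  have hR : R ≤ subalgebraOfSubring O.toSubring := Algebra.adjoin_le (Set.range_subset_iff.2 ht)
  obtain ⟨m, hm, h2⟩ := Ideal.exists_le_maximal (Ideal.span {(2 : R)}) (by
    rw [Ne, Ideal.span_singleton_eq_top, isUnit_iff_exists_inv]
    rintro ⟨b, hb⟩
    have := mul_lt_one_of_nonneg_of_lt_one_left zero_le (O.mem_nonunits_iff.1 h) ((O.valuation_le_one_iff _).2 (hR b.2))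
    rw [← map_mul, show (2 : K) * b = 1 from congrArg Subtype.val hb, map_one] at this
    exact this.false)
  let _ := Ideal.Quotient.field m
  have : CharP (R ⧸ m) 2 := (CharP.charP_iff_prime_eq_zero Nat.prime_two).2
    (Ideal.Quotient.eq_zero_iff_mem.2 (h2 (Ideal.subset_span rfl)))
  let _ := ZMod.algebra (R ⧸ m) 2
  have : Algebra.FiniteType ℤ R := .adjoin_of_finite (Set.finite_range t)
  have : Algebra.FiniteType (ZMod 2) (R ⧸ m) := .of_restrictScalars_finiteType ℤ _ _
  have := finite_of_finite_type_of_isJacobsonRing (ZMod 2) (R ⧸ m)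
  have := Module.finite_of_finite (ZMod 2) (M := R ⧸ m)
  exact ⟨R, R ⧸ m, _, Fintype.ofFinite _, Ideal.Quotient.mk m, ‹_›, fun i => Algebra.subset_adjoin ⟨i, rfl⟩⟩

theorem eq_one_of_map {R F : Type} [CommRing R] [IsDomain R] [Field F] [CharP F 2] (π : R →+* F)
    {A : Matrix (Fin n) (Fin n) R} {k : ℕ} (hk : Odd k) (h : A ^ k = 1) (h1 : π.mapMatrix A = 1) : A = 1 := by
  have h2 := geom_sum_mul A k
  rw [h, sub_self] at h2
  have h3 : (∑ i ∈ range k, A ^ i).det ≠ 0 := fun e => by
    have := congrArg π e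
    rw [π.map_det, map_sum] at this
    simp only [map_pow, h1, one_pow, sum_const, card_range, ← Nat.cast_smul_eq_nsmul F, det_smul, det_one, mul_one,
      map_zero] at this
    exact hk.not_two_dvd_nat ((CharP.cast_eq_zero_iff F 2 _).1 (pow_eq_zero_iff'.1 this).1)
  have h4 := congrArg ((∑ i ∈ range k, A ^ i).adjugate * ·) h2
  simpa only [← Matrix.mul_assoc, adjugate_mul, Matrix.mul_zero, smul_mul_assoc, Matrix.one_mul, smul_eq_zero, h3,
    false_or, sub_eq_zero] using h4

variable {G : Type} [Group G]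

/-- a non-alternating invariant symmetric form in characteristic two gives an invariant hyperplane -/
theorem exists_hyperplane {F W : Type} [Field F] [Finite F] [CharP F 2] [AddCommGroup W] [Module F W]
    [Module.Finite F W] (σ : Representation F G W) (β : LinearMap.BilinForm F W) (hs : ∀ u v, β u v = β v u)
    (hβ : ∀ g u, β (σ g u) (σ g u) = β u u) {v : W} (hv : β v v = 1) {g : G} (hg : Odd (orderOf g)) (h : σ g ≠ 1) :
    ∃ (U : Submodule F W) (τ : Representation F G U), finrank F U + 1 = finrank F W ∧ τ g ≠ 1 := by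
  let l : W →ₗ[F] F :=
    { toFun := fun x => (frobeniusEquiv F 2).symm (β x x)
      map_add' := fun x y => by
        rw [← map_add]; congr 1
        simp only [map_add, LinearMap.add_apply, hs y x]
        linear_combination CharTwo.add_self_eq_zero (β x y)
      map_smul' := fun c x => (frobeniusEquiv F 2).injective (by
        rw [smul_eq_mul, map_mul, RingEquiv.apply_symm_apply, RingEquiv.apply_symm_apply]
        simp [frobenius_def, sq, mul_assoc]) }
  have h1 : ∀ g u, l (σ g u) = l u := fun g u => congrArg (frobeniusEquiv F 2).symm (hβ g u)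
  have h2 := l.finrank_range_add_finrank_ker
  rw [LinearMap.range_eq_top.2 fun c => ⟨c • v, by rw [map_smul]; simp [l, hv]⟩, finrank_top, finrank_self] at h2
  refine ⟨LinearMap.ker l, σ.subrepresentation _ fun g u hu => (h1 g u).trans hu, by omega, fun e => h ?_⟩
  have h3 : σ (g ^ 2) = 1 := LinearMap.ext fun x => by
    have : σ g (σ g x - x) = σ g x - x := congrArg Subtype.val (LinearMap.congr_fun e ⟨σ g x - x, by simp [h1]⟩)
    have e2 : (2 : F) • σ g x = (2 : F) • x := by simp [CharTwo.two_eq_zero]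
    rw [map_sub] at this
    rw [sq, map_mul, End.mul_apply, End.one_apply]
    linear_combination (norm := module) this + e2
  obtain ⟨k, hk⟩ := hg
  rw [← one_mul g, ← pow_orderOf_eq_one g, hk, ← pow_succ, show 2 * k + 1 + 1 = 2 * (k + 1) by ring, pow_mul, map_pow, h3,
    one_pow]

theorem exists_rep_two [CharZero K] [Finite G] [FiniteDimensional K V] (ρ : Representation K G V)
    (B : LinearMap.BilinForm K V) (hs : ∀ u v, B u v = B v u) (ha : ∀ v, B v v = 0 → v = 0)
    (hB : ∀ g u v, B (ρ g u) (ρ g v) = B u v) (hn : finrank K V = 2 * n + 1) {g : G} (hg : Odd (orderOf g))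
    (h1 : ρ g ≠ 1) : ∃ (F : Type) (_ : Field F) (_ : Fintype F) (U : Submodule F (Fin (2 * n + 1) → F))
      (τ : Representation F G U), CharP F 2 ∧ finrank F U = 2 * n ∧ τ g ≠ 1 := by
  obtain ⟨O, hO⟩ := exists_two (K := K)
  let e := finBasisOfFinrankEq K V hn
  let s : G × Fin (2 * n + 1) → V := fun a => ρ a.1 (e a.2)
  have h2 : ∀ g a, ρ g (s a) = s (g * a.1, a.2) := fun g a => by simp [s]
  obtain ⟨v, v1, v2, v3⟩ := exists_split O n B hs ha s (top_unique (e.span_eq.ge.trans (span_mono (by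
    rintro _ ⟨i, rfl⟩; exact ⟨(1, i), by simp [s]⟩)))) hn
  have h3 : ∀ g u w, B (ρ g u) w = B u (ρ g⁻¹ w) := fun g u w => by rw [← hB g u, Representation.self_inv_apply]
  have h4 : ∀ g, B v (ρ g v) / B v v ∈ O := fun g =>
    span_induction (p := fun w _ => B v (ρ g w) / B v v ∈ O) (by rintro _ ⟨a, rfl⟩; rw [h2]; exact v3 _)
      (by simp) (fun x y _ _ a b => by rw [map_add, map_add, add_div]; exact add_mem a b) (fun a x _ b => by
        change B v (ρ g ((a : K) • x)) / _ ∈ O
        rw [map_smul, map_smul, smul_eq_mul, mul_div_assoc]; exact mul_mem a.2 b) v1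
  obtain ⟨⟨μ, m1⟩, m2⟩ := IsLocalization.exist_integer_multiples_of_finite (nonZeroDivisors O)
    fun a : _ × _ => B (s a.1) (s a.2) / B v v
  have m3 : (μ : K) ≠ 0 := fun e => nonZeroDivisors.ne_zero m1 (Subtype.ext e)
  let t : G ⊕ G × Fin (2 * n + 1) → V := Sum.elim (ρ · v) fun a => (μ : K) • s a
  have h5 : ∀ x y, B (t x) (t y) / B v v ∈ O := by
    have a : ∀ g a, B (ρ g v) ((μ : K) • s a) / B v v ∈ O := fun g a => by
      rw [map_smul, h3, h2, smul_eq_mul, mul_div_assoc]; exact mul_mem μ.2 (v3 _)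
    rintro (x | x) (y | y)
    · simpa [t, h3, ← End.mul_apply, ← map_mul] using h4 (x⁻¹ * y)
    · exact a x y
    · exact hs _ _ ▸ a y x
    · obtain ⟨c, hc⟩ := m2 (x, y)
      have := mul_mem μ.2 c.2
      rw [show (c : K) = μ * _ from hc] at this
      simpa [t, mul_div_assoc] using this
  have h6 : ∀ g x, ∃ y, ρ g (t x) = t y := by
    rintro g (x | x)
    exacts [⟨.inl (g * x), by simp [t]⟩, ⟨.inr (g * x.1, x.2), by simp [t, h2]⟩]
  obtain ⟨b, b1, b2⟩ := exists_basis O e t (f := fun i => .inr (1, i)) (by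
    rw [show (t ∘ fun i => .inr (1, i)) = fun i => (μ : K) • e i from funext fun i => by simp [t, s],
      e.det.map_smul_univ (fun _ => (μ : K)) e, e.det_self]
    simp [m3])
  obtain ⟨R, F, _, _, π, _, hR⟩ := exists_spec O hO (t := Sum.elim (fun a : G × _ × _ =>
    LinearMap.toMatrix b b (ρ a.1) a.2.1 a.2.2) (Sum.elim (fun a : _ × _ => B (b a.1) (b a.2) / B v v) (b.repr v))) (by
      rintro (⟨g, i, j⟩ | ⟨i, j⟩ | i)
      · obtain ⟨x, e1⟩ := b1 j
        obtain ⟨y, e2⟩ := h6 g x
        simpa [LinearMap.toMatrix_apply, e1, e2] using b2 y i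
      · obtain ⟨x, e1⟩ := b1 i
        obtain ⟨y, e2⟩ := b1 j
        simpa [e1, e2] using h5 x y
      · simpa [t] using b2 (.inl 1) i)
  have hi : Function.Injective (R.val.toRingHom.mapMatrix (m := Fin (2 * n + 1))) :=
    Matrix.map_injective Subtype.val_injective
  let A₀ : G → Matrix _ _ R := fun g => .of fun i j => ⟨_, hR (.inl (g, i, j))⟩
  have hA : ∀ g, R.val.toRingHom.mapMatrix (A₀ g) = LinearMap.toMatrixAlgEquiv b (ρ g) := fun _ => rfl
  let A : G →* Matrix _ _ R := ⟨⟨A₀, hi (by simp only [hA, map_one])⟩, fun g h => hi (by simp only [hA, map_mul])⟩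
  let Γ : Matrix _ _ R := .of fun i j => ⟨_, hR (.inr (.inl (i, j)))⟩
  have hΓ : R.val.toRingHom.mapMatrix Γ = LinearMap.BilinForm.toMatrix b ((B v v)⁻¹ • B) := by
    ext; simp [Γ, div_eq_inv_mul]
  let w : Fin (2 * n + 1) → R := fun i => ⟨_, hR (.inr (.inr i))⟩
  have a1 : Γᵀ = Γ := by ext i j; simp [Γ, hs (b i)]
  have a2 : ∀ g, (A g)ᵀ * Γ * A g = Γ := fun g => hi (by
    rw [map_mul, map_mul, hΓ]
    exact (LinearMap.BilinForm.toMatrix_comp b b _ (ρ g) (ρ g)).symm.trans (congrArg _ (by ext; simp [hB])))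
  have a3 : w ⬝ᵥ Γ *ᵥ w = 1 := Subtype.ext (by
    have := LinearMap.BilinForm.apply_eq_dotProduct_toMatrix_mulVec b ((B v v)⁻¹ • B) v v
    rw [← hΓ, LinearMap.smul_apply, LinearMap.smul_apply, smul_eq_mul, inv_mul_cancel₀ (mt (ha v) v2)] at this
    refine (R.val.toRingHom.map_dotProduct _ _).trans (Eq.trans (congrArg _ (funext fun i => ?_)) this.symm)
    exact R.val.toRingHom.map_mulVec _ _ i)
  obtain ⟨U, τ, c1, c2⟩ := exists_hyperplane (G := G) ((Matrix.toLinAlgEquiv' : _ ≃ₐ[F] _).toMulEquiv.toMonoidHom.comp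
    (π.mapMatrix.toMonoidHom.comp A)) (Matrix.toBilin' (Γ.map π)) (fun x y => by
      rw [toBilin'_apply', toBilin'_apply', dotProduct_mulVec, ← mulVec_transpose, ← transpose_map, a1, dotProduct_comm])
    (fun g x => by
      refine (congr($(toBilin'_comp (Γ.map π) ((A g).map π) ((A g).map π)) x x)).trans ?_
      rw [← transpose_map, ← Matrix.map_mul, ← Matrix.map_mul, a2]) (v := π ∘ w) (by
      rw [toBilin'_apply', ← map_one π, ← a3, π.map_dotProduct]
      exact congrArg _ (funext fun i => (π.map_mulVec _ _ i).symm)) hg fun e => h1 (by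
      have := eq_one_of_map π hg (by rw [← map_pow, pow_orderOf_eq_one, map_one])
        (Matrix.toLinAlgEquiv'.injective (e.trans (map_one _).symm))
      refine (LinearMap.toMatrixAlgEquiv b).injective ?_
      rw [← hA, map_one, show A₀ g = 1 from this, map_one])
  exact ⟨F, _, ‹_›, U, τ, ‹_›, by simpa using c1, c2⟩

theorem exists_rep_two' {V : Type} [AddCommGroup V] [Module ℝ V] [Finite G] [FiniteDimensional ℝ V]
    (ρ : Representation ℝ G V) (B : LinearMap.BilinForm ℝ V) (hs : ∀ u v, B u v = B v u) (ha : ∀ v, v ≠ 0 → 0 < B v v)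
    (hB : ∀ g u v, B (ρ g u) (ρ g v) = B u v) (hn : finrank ℝ V ≤ 2 * n + 1) {g : G} (hg : Odd (orderOf g))
    (h1 : ρ g ≠ 1) : ∃ (F : Type) (_ : Field F) (_ : Fintype F) (U : Submodule F (Fin (2 * n + 1) → F))
      (τ : Representation F G U), CharP F 2 ∧ finrank F U = 2 * n ∧ τ g ≠ 1 := by
  refine exists_rep_two (ρ.prod (.trivial ℝ G (Fin (2 * n + 1 - finrank ℝ V) → ℝ)))
    (B.comp (.fst ..) (.fst ..) + LinearMap.BilinForm.comp (dotProductBilin ℝ ℝ) (.snd ..) (.snd ..))
    (fun u v => by simp [hs u.1, dotProduct_comm u.2]) (fun v h => ?_) (fun g u v => by simp [hB, Representation.prod])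
    (by simp; omega) hg fun e => h1 (LinearMap.ext fun v => congr(($e (v, 0)).1))
  have h2 := dotProduct_self_star_nonneg v.2
  simp only [star_trivial] at h2
  have h3 : v.1 = 0 := by_contra fun e => by have := ha _ e; simp at h; linarith
  exact Prod.ext h3 (by simpa [h3] using h)

end Cfsg.Lib.Griess
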